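import Cfsg.Agent.H520.CcpCfg
import Cfsg.Agent.H486.OnE7
import Cfsg.Agent.S1054
import Cfsg.Agent.S1055
import Cfsg.Agent.S1057
import Cfsg.Agent.S0283

/-!
# Elliptic configurations in the exceptional groups: the common part (helper288, task 2377 of S4114)

* `closure_relem` : `D.group F` is generated by elements of order `r` (characteristic `r`);
* `fld_false` : automorphisms of prime order of field type do not occur in elliptic configurations;
* `real_adj` : semisimple elements of prime order are real for the types with `-1 ∈ W` and unimodular Cartan matrix;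
* `el_of_real` : the elliptic row from the reality of the elements of odd prime order.
-/

set_option autoImplicit false
set_option linter.unusedSectionVars false

namespace Cfsg.Agent.H288.ElBase

open CoxeterSystem Subgroup Cfsg Cfsg.Lie Cfsg.Lie.ChevalleyDatum
open Cfsg.Agent.ChevalleyStructure Cfsg.Agent.ChevalleyStructure.Elts Cfsg.Agent.ChevalleyStructure.CoxeterGeom
  Cfsg.Agent.ChevalleyStructure.CoxeterGeomTypes Cfsg.Agent.ChevalleyStructure.NPerm
open Cfsg.Agent.Tits.Roots Cfsg.Agent.Tits.Core Cfsg.Agent.Nodes Cfsg.Agent.Nodes.Reps Cfsg.Agent.Nodes.BNOf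
  Cfsg.Agent.Nodes.RGDChev Cfsg.Agent.Nodes.Bruhat Cfsg.Agent.Nodes.NormalForm
open Cfsg.Agent.KFacts.RgdField Cfsg.Agent.KFacts.RgdChevCoord
open Cfsg.Agent.GpExc.Field (glMap emb coe_emb glMap_xG emb_injective coe_glMap)
open Cfsg.Agent.BpExc Cfsg.Agent.BpExc.TorCent Cfsg.Agent.BpExc.TorChev Cfsg.Agent.BpExc.Tow
open Cfsg.Agent.BpExc.TowChev Cfsg.Agent.BpExc.Fr Cfsg.Agent.BpExc.LangFr
open Cfsg.Agent.BpExc.FamUntw Cfsg.Agent.BpExc.FamInst Cfsg.Agent.BpExc.FamExt Cfsg.Agent.BpExc.FamField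
open Cfsg.Agent.BpExc.RowsUntw
open Cfsg.Agent.H696.GmnToral Cfsg.Agent.H696.GmnUntw Cfsg.Agent.H696.GmnTor Cfsg.Agent.H696.GmnInv
open Cfsg.Agent.H520

universe u v

variable {D : ChevalleyDatum} {l : ℕ} {M : CoxeterMatrix (Fin l)}

/-- `D.group F` is generated by elements of order `r`. -/
theorem closure_relem (hD : InList D) (F : Type u) [Field F] (r : ℕ) [Fact r.Prime] [CharP F r] :
    closure {g : ↥(D.group F) | ∃ k : ℕ, g ^ r ^ k = 1} = ⊤ := by
  rw [eq_top_iff]
  have h1 : closure (((↑) : ↥(D.group F) → GL D.Idx F) ⁻¹'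
      {g | ∃ (s : Fin D.nroots) (t : F), (g : Matrix D.Idx D.Idx F) = D.xMat F s t}) = ⊤ :=
    Subgroup.closure_closure_coe_preimage
  rw [← h1]
  apply Subgroup.closure_mono
  rintro g ⟨s, t, hg⟩
  refine ⟨1, Subtype.ext ?_⟩
  have h2 : (g : GL D.Idx F) = xG hD (s : ℕ) t := (eq_xG_iff hD _ _ _).2 (by rw [hg, x_of_lt s.2])
  have h3 : ∀ j : ℕ, xG hD (s : ℕ) t ^ j = xG hD (s : ℕ) ((j : F) * t) := by
    intro j
    induction j with
    | zero => rw [pow_zero, Nat.cast_zero, zero_mul, xG_zero]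
    | succ j ih => rw [pow_succ, ih, xG_add, Nat.cast_succ, add_mul, one_mul]
  show (g : GL D.Idx F) ^ r ^ 1 = 1
  rw [pow_one, h2, h3, CharP.cast_eq_zero, zero_mul, xG_zero]

theorem ns_of_simple {G : Type*} [Group G] (h1 : IsSimpleGroup G) (h2 : ¬ IsMulCommutative G) :
    ¬ Group.IsSolvable G := by
  intro h
  exact h2 ⟨⟨fun a b => IsSimpleGroup.comm_iff_isSolvable.2 h a b⟩⟩

theorem ns_g2 {E : Type u} [Field E] [Fintype E] : ¬ Group.IsSolvable ↥(chevG2.group E) := by
  intro h
  by_cases h2 : ∃ a : E, a ≠ 0 ∧ a ≠ 1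
  · obtain ⟨h3, h4⟩ := S1055.result h2
    exact ns_of_simple h3 h4 h
  · have hc : Fintype.card E = 2 := by
      push Not at h2
      classical
      have h3 : (Finset.univ : Finset E) = {0, 1} := by
        ext a
        simp only [Finset.mem_univ, Finset.mem_insert, Finset.mem_singleton, true_iff]
        by_cases ha : a = 0
        · exact Or.inl ha
        · exact Or.inr (h2 a ha)
      rw [← Finset.card_univ, h3, Finset.card_pair zero_ne_one]
    let _ : Fintype (GaloisField 3 2) := Fintype.ofFinite _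
    have hF : Fintype.card (GaloisField 3 2) = 9 := by
      rw [Fintype.card_eq_nat_card, GaloisField.card 3 2 (by norm_num)]; norm_num
    obtain ⟨e⟩ := S1057.result hc hF
    have h3 : Group.IsSolvable ↥(commutator ↥(chevG2.group E)) := inferInstance
    have h4 : Group.IsSolvable (PSU 3 (GaloisField 3 2) 3) :=
      Group.isSolvable_of_isSolvable_injective (f := e.symm.toMonoidHom) e.symm.injective
    have h5 := S0283.result (F := GaloisField 3 2) (q := 3) (by rw [hF]; norm_num) 3 le_rfl (by omega)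
    have : IsSimpleGroup (↥(SU 3 (GaloisField 3 2) 3) ⧸ Subgroup.center ↥(SU 3 (GaloisField 3 2) 3)) := h5
    exact ns_of_simple this CpAut.Fix.not_comm_quot h4

theorem ns_chev {E : Type u} [Field E] {D : ChevalleyDatum} (hD : D ∈ [chevD4, chevF4, chevE6, chevE7, chevE8]) :
    ¬ Group.IsSolvable ↥(D.group E) := by
  obtain ⟨h3, h4⟩ := S1054.result (F := E) D hD
  exact ns_of_simple h3 h4

section Fld

variable (hp : IsType D l M) {r : ℕ} [Fact r.Prime] {F : Type} [Field F] [Fintype F] [CharP F r]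
  (f : F →+* AlgebraicClosure (ZMod r))

/-- **Field type**: if `x ∈ ⟨α⟩` is conjugate to a field automorphism then `C_G(x)` contains `D(q₁)`. -/
theorem fld_false (hns : ∀ (F₁ : Type) [Field F₁] [Fintype F₁], ¬ Group.IsSolvable ↥(D.group F₁))
    {α : MulAut ↥(D.group F)} (h : Cfg α) (hE : EL r α) {x : MulAut ↥(D.group F)} (hx : x ∈ zpowers α) (hx1 : x ≠ 1)
    {p : ℕ} (hxp : x ^ p = 1) {n : ℕ} (hn : Fintype.card F = r ^ n) {i m : ℕ} (hi : i.Coprime p)
    (hm0 : 0 < m) {y : ↥(D.group (AlgebraicClosure (ZMod r)))}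
    (hy : (MulAut.conj y * phi D (AlgebraicClosure (ZMod r)) r m) ^ p = phi D (AlgebraicClosure (ZMod r)) r n)
    (hxi : ∀ g, emb hp.inList f ((x ^ i) g) =
      (MulAut.conj y * phi D (AlgebraicClosure (ZMod r)) r m) (emb hp.inList f g)) : False := by
  have hk : LocFin (AlgebraicClosure (ZMod r)) := locFin_of_isAlgebraic r _
  have hD := hp.inList
  have hn0 : 0 < n := by
    rcases Nat.eq_zero_or_pos n with h0 | h0
    · exfalso
      rw [h0, pow_zero] at hn
      have := Fintype.one_lt_card (α := F)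
      omega
    · exact h0
  have hfin := finite_phi (D := D) (k := AlgebraicClosure (ZMod r)) (r := r) hn0
  obtain ⟨z, hz⟩ := lang_all hp M.toCoxeterSystem hm0 (phi_isFrob r m) (phi_fr hp M.toCoxeterSystem r hk m) 1 y
  rw [map_one, one_mul] at hz
  have hzm : phi D (AlgebraicClosure (ZMod r)) r m z = z * y := by rw [hz]; group
  have : Fintype (GaloisField r m) := Fintype.ofFinite _
  obtain ⟨f₁⟩ := exists_emb r (GaloisField r m)
  have hn₁ : Fintype.card (GaloisField r m) = r ^ m := by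
    rw [Fintype.card_eq_nat_card, GaloisField.card r m hm0.ne']
  let ψ : ↥(D.group (GaloisField r m)) →* ↥(D.group (AlgebraicClosure (ZMod r))) :=
    (MulAut.conj z⁻¹).toMonoidHom.comp (emb hD f₁)
  have hψ : ∀ w, ψ w = z⁻¹ * emb hD f₁ w * z := by
    intro w
    show z⁻¹ * emb hD f₁ w * z⁻¹⁻¹ = _
    rw [inv_inv]
  have hψi : Function.Injective ψ := fun a b hab => emb_injective hD f₁ ((MulAut.conj z⁻¹).injective hab)
  have h1 : ∀ w, (MulAut.conj y * phi D (AlgebraicClosure (ZMod r)) r m) (ψ w) = ψ w := by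
    intro w
    rw [MulAut.mul_apply, MulAut.conj_apply, hψ, map_mul, map_mul, map_inv, hzm, phi_emb' hp f₁ r hn₁]
    group
  have h2 : ∀ w, phi D (AlgebraicClosure (ZMod r)) r n (ψ w) = ψ w := by
    intro w
    rw [← hy]
    have : ∀ j : ℕ, ((MulAut.conj y * phi D (AlgebraicClosure (ZMod r)) r m) ^ j) (ψ w) = ψ w := by
      intro j
      induction j with
      | zero => rfl
      | succ j ih => rw [pow_succ, MulAut.mul_apply, h1, ih]
    exact this p
  have h3 : ∀ w, ψ w ∈ (emb hD f).range := by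
    have h4 : (⊤ : Subgroup ↥(D.group (GaloisField r m))) ≤ (emb hD f).range.comap ψ := by
      rw [← closure_relem hD (GaloisField r m) r, closure_le]
      rintro w ⟨j, hj⟩
      show ψ w ∈ (emb hD f).range
      obtain ⟨c, hc, hcr⟩ := pow_mem_range' hp f hn (h2 w)
      have h5 : ψ w ^ r ^ j = 1 := by rw [← map_pow, hj, map_one]
      exact Cfsg.Agent.H696.GmnInv.mem_of_pow h5 (Nat.Coprime.pow_left j hc.symm) hcr
    intro w
    exact h4 (mem_top w)
  let e := MonoidHom.ofInjective (emb_injective hD f)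
  let g : ↥(D.group (GaloisField r m)) →* ↥(D.group F) :=
    e.symm.toMonoidHom.comp (ψ.codRestrict (emb hD f).range h3)
  have hg : ∀ w, emb hD f (g w) = ψ w := by
    intro w
    have h4 : e (e.symm ⟨ψ w, h3 w⟩) = ⟨ψ w, h3 w⟩ := e.apply_symm_apply _
    exact congrArg Subtype.val h4
  have hgi : Function.Injective g := by
    intro a b hab
    apply hψi
    rw [← hg, ← hg, hab]
  refine h.el_false_hom hE hx hx1 g (fun w => ?_) (closure_relem hD (GaloisField r m) r) ?_
  · have h4 : g w ∈ fixedSubgroup (x ^ i) := by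
      apply emb_injective hD f
      rw [hxi, hg, h1]
    rw [Glue.fixedSubgroup_pow hxp hi] at h4
    exact h4
  · intro hs
    apply hns (GaloisField r m)
    exact Group.isSolvable_of_isSolvable_injective (f := g.rangeRestrict)
      (fun a b hab => hgi (congrArg Subtype.val hab))

end Fld

section Real

variable (hp : IsType D l M) {r : ℕ} [Fact r.Prime] {F : Type} [Field F] [Fintype F] [CharP F r]

include hp in
/-- **Semisimple elements of prime order are real** : `-1 ∈ W`, unimodular Cartan matrix. -/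
theorem real_adj {B : Fin l → Fin l → ℤ} (hB : InvC D l 1 B)
    (hZ : center ↥(D.group (AlgebraicClosure (ZMod r))) = ⊥)
    (hneg : ∃ w : M.Group, ∀ a, IsRoot M.toCoxeterSystem hp.isCartan a → rep M.toCoxeterSystem hp.isCartan w a = -a)
    {p : ℕ} (hpp : p.Prime) (hpr : p ≠ r) {z : ↥(D.group F)} (hz : z ^ p = 1) : ∃ g, g * z * g⁻¹ = z⁻¹ := by
  obtain ⟨f⟩ := exists_emb r F
  obtain ⟨n, hn0, hn⟩ := exists_card (F := F) r
  have hk : LocFin (AlgebraicClosure (ZMod r)) := locFin_of_isAlgebraic r _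
  have hq : Fintype.card F = r ^ n := by rw [← hn, Nat.card_eq_fintype_card]
  obtain ⟨w, hw⟩ := TorAll.exists_toral' hp r hpp hpr (y := emb hp.inList f z) (by rw [← map_pow, hz, map_one])
  obtain ⟨y, h1, h2⟩ := real_of_neg hp M.toCoxeterSystem hk hZ hn0 H129.TorusUntw.isFrob_phi
      (H129.TorusUntw.fr_phi hp M.toCoxeterSystem) (H129.TorusUntw.phi_emb hp f hq z) hw hneg
  obtain ⟨g, hg⟩ := H129.TorusUntw.fix_range hp M.toCoxeterSystem f hq hB one_ne_zero (fun a => ⟨a, pow_one a⟩) h1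
  refine ⟨g⁻¹, emb_injective hp.inList f ?_⟩
  rw [map_mul, map_mul, map_inv, map_inv, map_inv, inv_inv, hg]
  exact h2

include hp in
/-- **The elliptic row from reality.** -/
theorem el_of_real (hD2 : 2 ∣ Nat.card ↥(D.group F))
    (hfam : ∀ (f : F →+* AlgebraicClosure (ZMod r)) {p : ℕ}, p.Prime → p ≠ 2 → ∀ {n : ℕ}, Nat.card F = r ^ n →
      ∀ {x : MulAut ↥(D.group F)}, x ^ p = 1 →
      (∃ y : ↥(D.group (AlgebraicClosure (ZMod r))), y ^ p = 1 ∧ phi D (AlgebraicClosure (ZMod r)) r n y = y ∧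
        ∀ g, emb hp.inList f (x g) = y * emb hp.inList f g * y⁻¹) ∨
      ∃ i m : ℕ, i.Coprime p ∧ 0 < m ∧ m * p = n ∧ ∃ y : ↥(D.group (AlgebraicClosure (ZMod r))),
        (MulAut.conj y * phi D (AlgebraicClosure (ZMod r)) r m) ^ p = phi D (AlgebraicClosure (ZMod r)) r n ∧
        ∀ g, emb hp.inList f ((x ^ i) g) =
          (MulAut.conj y * phi D (AlgebraicClosure (ZMod r)) r m) (emb hp.inList f g))
    (hns : ∀ (F₁ : Type) [Field F₁] [Fintype F₁], ¬ Group.IsSolvable ↥(D.group F₁))
    (hind : ∀ (f : F →+* AlgebraicClosure (ZMod r)) {p : ℕ}, p.Prime → p ≠ 2 → ∀ {n : ℕ}, Fintype.card F = r ^ n →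
      ∀ {y : ↥(D.group (AlgebraicClosure (ZMod r)))}, y ^ p = 1 → phi D (AlgebraicClosure (ZMod r)) r n y = y →
      y ∈ (emb hp.inList f).range)
    (hreal : ∀ {p : ℕ}, p.Prime → p ≠ 2 → p ≠ r → ∀ {z : ↥(D.group F)}, z ^ p = 1 → ∃ g, g * z * g⁻¹ = z⁻¹) :
    ElRow r ↥(D.group F) := by
  intro α h hE
  obtain ⟨p, hpp, hp2, hpα⟩ := h.exists_prime_ne Nat.prime_two hD2
  obtain ⟨x, hx, hxo⟩ := exists_prime_order hpp hpα
  have hx1 : x ≠ 1 := by
    rintro rfl
    rw [orderOf_one] at hxo
    exact hpp.one_lt.ne hxo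
  have hxp : x ^ p = 1 := by rw [← hxo, pow_orderOf_eq_one]
  obtain ⟨f⟩ := exists_emb r F
  obtain ⟨n, hn0, hn⟩ := exists_card (F := F) r
  have hq : Fintype.card F = r ^ n := by rw [← hn, Nat.card_eq_fintype_card]
  rcases hfam f hpp hp2 hn hxp with ⟨y, hyp, hyf, hy⟩ | ⟨i, m, hi, hm0, -, y, hy, hxi⟩
  · obtain ⟨z, rfl⟩ := hind f hpp hp2 hq hyp hyf
    have hzp : z ^ p = 1 := emb_injective hp.inList f (by rw [map_pow, hyp, map_one])
    have hxz : x = MulAut.conj z := by
      ext1 g
      apply emb_injective hp.inList f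
      rw [hy, MulAut.conj_apply, map_mul, map_mul, map_inv]
    subst hxz
    have hz1 : z ≠ 1 := by
      rintro rfl
      exact hx1 (map_one _)
    have hpF : Fact p.Prime := ⟨hpp⟩
    by_cases hpr : p = r
    · subst hpr
      have h1 := hE (zpowers z) (IsPGroup.of_card (n := 1) (by
        rw [Nat.card_zpowers, pow_one]
        exact orderOf_eq_prime hzp hz1)) (by
        have h2 : α z = z := by
          have h3 := (Cfg.comm_zpowers (mem_zpowers α) hx).eq
          have h4 : MulAut.conj (α z) = MulAut.conj z := by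
            rw [← aut_conj, h3, mul_inv_cancel_right]
          exact conj_inj h.center_bot h4
        rintro _ ⟨j, rfl⟩
        refine ⟨j, ?_⟩
        show z ^ j = α (z ^ j)
        rw [map_zpow, h2])
      exact hz1 (zpowers_eq_bot.1 h1)
    · obtain ⟨g, hg⟩ := hreal hpp hp2 hpr hzp
      have h1 := h.sq_eq_one_of_real hx hg
      have h2 : orderOf z = p := orderOf_eq_prime hzp hz1
      have h3 := orderOf_dvd_of_pow_eq_one h1
      rw [h2] at h3
      exact hp2 ((Nat.prime_dvd_prime_iff_eq hpp Nat.prime_two).1 h3)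
  · exact fld_false hp f hns h hE hx hx1 hxp hq hi hm0 hy hxi

end Real

end Cfsg.Agent.H288.ElBase
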