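import Cfsg.Agent.H288.ElBase
import Cfsg.Agent.ChevalleyStructure.OrderFinal
import Cfsg.Agent.ChevalleyStructure.CardCombAll

/-!
# Elliptic configurations in `G₂(q)`, `F₄(q)`, `E₇(q)`, `E₈(q)` (helper288, task 2377 of S4114)

`el_g2`, `el_f4`, `el_e7`, `el_e8`, `el_exc`.
-/

set_option autoImplicit false
set_option linter.unusedSectionVars false

namespace Cfsg.Agent.H288.ElExc

open CoxeterSystem Subgroup Cfsg Cfsg.Lie Cfsg.Lie.ChevalleyDatum
open Cfsg.Agent.ChevalleyStructure Cfsg.Agent.ChevalleyStructure.Elts Cfsg.Agent.ChevalleyStructure.CoxeterGeom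
  Cfsg.Agent.ChevalleyStructure.CoxeterGeomTypes Cfsg.Agent.ChevalleyStructure.NPerm
open Cfsg.Agent.Tits.Roots Cfsg.Agent.Tits.Core Cfsg.Agent.Nodes Cfsg.Agent.Nodes.Reps Cfsg.Agent.Nodes.BNOf
  Cfsg.Agent.Nodes.RGDChev Cfsg.Agent.Nodes.Bruhat Cfsg.Agent.Nodes.NormalForm
open Cfsg.Agent.KFacts.RgdField Cfsg.Agent.KFacts.RgdChevCoord
open Cfsg.Agent.GpExc.Field (glMap emb coe_emb glMap_xG emb_injective coe_glMap)
open Cfsg.Agent.BpExc Cfsg.Agent.BpExc.TorCent Cfsg.Agent.BpExc.TorChev Cfsg.Agent.BpExc.Tow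
open Cfsg.Agent.BpExc.TowChev Cfsg.Agent.BpExc.Fr Cfsg.Agent.BpExc.LangFr
open Cfsg.Agent.BpExc.FamUntw Cfsg.Agent.BpExc.FamInst Cfsg.Agent.BpExc.FamExt Cfsg.Agent.BpExc.FamField
open Cfsg.Agent.BpExc.RowsUntw
open Cfsg.Agent.H696.GmnToral Cfsg.Agent.H696.GmnUntw Cfsg.Agent.H696.GmnTor Cfsg.Agent.H696.GmnInv
open Cfsg.Agent.H520 Cfsg.Agent.H288.ElBase
open Cfsg.Agent.CpAut.RgdUntw (SymTwo symTwo_G2 symTwo_F4 symTwo_E7 symTwo_E8)

universe u v

/-! ### the order is even -/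

theorem even_of {q d c N : ℕ} {degs : List ℕ} (hd : d = 1 ∨ d = Nat.gcd 2 (q - 1)) (hq : 1 < q) (hN : N ≠ 0)
    (hl : 2 ≤ degs.length) (h : d * c = q ^ N * (degs.map fun k => q ^ k - 1).prod) : 2 ∣ c := by
  obtain ⟨a, b, L, rfl⟩ : ∃ a b L, degs = a :: b :: L := by
    rcases degs with _ | ⟨a, _ | ⟨b, L⟩⟩
    · simp at hl
    · simp at hl
    · exact ⟨a, b, L, rfl⟩
  rw [List.map_cons, List.map_cons, List.prod_cons, List.prod_cons] at h
  rcases Nat.even_or_odd q with he | ho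
  · have h1 : Nat.gcd 2 (q - 1) = 1 := by
      obtain ⟨m, hm⟩ := he
      have h2 : Nat.gcd 2 (q - 1) ∣ 2 := Nat.gcd_dvd_left _ _
      have h3 : Nat.gcd 2 (q - 1) ∣ q - 1 := Nat.gcd_dvd_right _ _
      rcases (Nat.dvd_prime Nat.prime_two).1 h2 with h4 | h4
      · exact h4
      · rw [h4] at h3
        obtain ⟨j, hj⟩ := h3
        omega
    have h2 : d = 1 := by rcases hd with h2 | h2 <;> omega
    subst h2
    rw [one_mul] at h
    rw [h]
    exact Dvd.dvd.mul_right ((even_iff_two_dvd.1 he).trans (dvd_pow_self q hN)) _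
  · have hodd : ∀ k : ℕ, 2 ∣ q ^ k - 1 := by
      intro k
      obtain ⟨m, hm⟩ := ho.pow (n := k)
      omega
    have h4 : 2 * 2 ∣ d * c := by
      rw [h, ← mul_assoc (q ^ a - 1)]
      exact Dvd.dvd.mul_left (Dvd.dvd.mul_right (Nat.mul_dvd_mul (hodd a) (hodd b)) _) _
    have h2 : d ∣ 2 := by
      rcases hd with h2 | h2
      · rw [h2]; exact one_dvd 2
      · rw [h2]; exact Nat.gcd_dvd_left _ _
    rcases (Nat.dvd_prime Nat.prime_two).1 h2 with h5 | h5
    · rw [h5, one_mul] at h4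
      exact (Dvd.intro 2 rfl).trans h4
    · rw [h5] at h4
      exact Nat.dvd_of_mul_dvd_mul_left two_pos h4

variable {F : Type u} [Field F] [Fintype F]

theorem even_g2 : 2 ∣ Nat.card ↥(chevG2.group F) :=
  even_of (N := chevG2.nroots / 2) (degs := [2, 6]) (Or.inl rfl) (Fintype.one_lt_card (α := F)) (by decide) (by decide)
    (OrderFinal.order_formula (F := F) rfl chevG2 1 [2, 6] (by simp) (by simp [InList])
      (CardCombAll.comb_of_mem (by simp)) (by simp) rfl)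

theorem even_f4 : 2 ∣ Nat.card ↥(chevF4.group F) :=
  even_of (N := chevF4.nroots / 2) (degs := [2, 6, 8, 12]) (Or.inl rfl) (Fintype.one_lt_card (α := F)) (by decide)
    (by decide) (OrderFinal.order_formula (F := F) rfl chevF4 1 [2, 6, 8, 12] (by simp) (by simp [InList])
      (CardCombAll.comb_of_mem (by simp)) (by simp) rfl)

theorem even_e7 : 2 ∣ Nat.card ↥(chevE7.group F) :=
  even_of (N := chevE7.nroots / 2) (degs := [2, 6, 8, 10, 12, 14, 18]) (Or.inr rfl) (Fintype.one_lt_card (α := F))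
    (by decide) (by decide) (OrderFinal.order_formula (F := F) rfl chevE7 (Nat.gcd 2 (Fintype.card F - 1))
      [2, 6, 8, 10, 12, 14, 18] (by simp) (by simp [InList]) (CardCombAll.comb_of_mem (by simp)) (by simp) rfl)

theorem even_e8 : 2 ∣ Nat.card ↥(chevE8.group F) :=
  even_of (N := chevE8.nroots / 2) (degs := [2, 8, 12, 14, 18, 20, 24, 30]) (Or.inl rfl)
    (Fintype.one_lt_card (α := F)) (by decide) (by decide)
    (OrderFinal.order_formula (F := F) rfl chevE8 1 [2, 8, 12, 14, 18, 20, 24, 30] (by simp)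
      (by simp [InList]) (CardCombAll.comb_of_mem (by simp)) (by simp) rfl)

/-! ### the automorphisms of prime order -/

section Cases

variable {D : ChevalleyDatum} {l : ℕ} {M : CoxeterMatrix (Fin l)} (hp : IsType D l M) {r : ℕ} [Fact r.Prime]
  {F : Type} [Field F] [Fintype F] [CharP F r]

theorem cases' {d : ℕ} {B : Fin l → Fin l → ℤ} (hB : InvC D l d B) (hd : d ≠ 0) (hM : SymTwo M)
    (hk1 : IsSimpleGroup ↥(D.group (AlgebraicClosure (ZMod r))) ∧ ¬ IsMulCommutative ↥(D.group (AlgebraicClosure (ZMod r))))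
    (hF1 : IsSimpleGroup ↥(D.group F) ∧ ¬ IsMulCommutative ↥(D.group F))
    (f : F →+* AlgebraicClosure (ZMod r))
    {p : ℕ} (hpp : p.Prime) (hp2 : p ≠ 2) {n : ℕ} (hn : Nat.card F = r ^ n)
    {x : MulAut ↥(D.group F)} (hxp : x ^ p = 1) :
    (∃ y : ↥(D.group (AlgebraicClosure (ZMod r))), y ^ p = 1 ∧ phi D (AlgebraicClosure (ZMod r)) r n y = y ∧
        ∀ g, emb hp.inList f (x g) = y * emb hp.inList f g * y⁻¹) ∨
      ∃ i m : ℕ, i.Coprime p ∧ 0 < m ∧ m * p = n ∧ ∃ y : ↥(D.group (AlgebraicClosure (ZMod r))),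
        (MulAut.conj y * phi D (AlgebraicClosure (ZMod r)) r m) ^ p = phi D (AlgebraicClosure (ZMod r)) r n ∧
        ∀ g, emb hp.inList f ((x ^ i) g) =
          (MulAut.conj y * phi D (AlgebraicClosure (ZMod r)) r m) (emb hp.inList f g) := by
  have hk : LocFin (AlgebraicClosure (ZMod r)) := locFin_of_isAlgebraic r _
  have hZ := center_eq_bot_of_simple hk1
  have hZF := center_eq_bot_of_simple hF1
  obtain ⟨hFs, hFc⟩ := hF1
  have hW := finite_W hp M.toCoxeterSystem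
  have R := rgd (K := F) hp M.toCoxeterSystem r
  have hG1 : RGD.Sup (XX D l F) {x | IsRoot M.toCoxeterSystem hp.isCartan x} = ⊤ := G1_eq_top hp M.toCoxeterSystem
  have hconn := KFacts.RgdLieCharP.conn_of_simple R hG1 hZF
  have hl : Nonempty (Fin l) := by
    rw [← Fin.pos_iff_nonempty]
    rcases Nat.eq_zero_or_pos l with h0 | h0
    · exfalso
      subst h0
      have h1 : (⊤ : Subgroup ↥(D.group F)) = ⊥ := by
        rw [← hG1, eq_bot_iff]
        refine RGD.Sup_le fun x hx => ?_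
        obtain ⟨w, i, -⟩ := hx
        exact i.elim0
      apply hFc
      have h2 : ∀ g : ↥(D.group F), g = 1 := fun g => by
        have : g ∈ (⊤ : Subgroup ↥(D.group F)) := Subgroup.mem_top g
        rwa [h1, Subgroup.mem_bot] at this
      exact ⟨⟨fun a b => by rw [h2 a, h2 b]⟩⟩
    · exact h0
  have hroots : ∀ c : F, c ≠ 0 → ∃ b : AlgebraicClosure (ZMod r), b ^ d = f c := fun c _ =>
    IsAlgClosed.exists_pow_nat_eq (f c) (Nat.pos_of_ne_zero hd)
  exact FamUntw.cases hp hk r f hB hd hroots hl hconn hZ hpp (hM.eq_one hpp hp2) hn hxp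

end Cases

/-! ### the rows -/

section Rows

variable {r : ℕ} [Fact r.Prime] {F : Type} [Field F] [Fintype F] [CharP F r]

theorem ind_adj {D : ChevalleyDatum} {l : ℕ} {M : CoxeterMatrix (Fin l)} (hp : IsType D l M)
    {d : ℕ} {B : Fin l → Fin l → ℤ} (hB : InvC D l d B) (hd : d ≠ 0)
    (hZ : center ↥(D.group (AlgebraicClosure (ZMod r))) = ⊥)
    (f : F →+* AlgebraicClosure (ZMod r)) {p : ℕ} (hpd : p.Coprime d) {n : ℕ} (hn : Fintype.card F = r ^ n)
    {y : ↥(D.group (AlgebraicClosure (ZMod r)))} (hy : y ^ p = 1)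
    (hyf : phi D (AlgebraicClosure (ZMod r)) r n y = y) : y ∈ (emb hp.inList f).range := by
  have hk : LocFin (AlgebraicClosure (ZMod r)) := locFin_of_isAlgebraic r _
  obtain ⟨s, hs⟩ := pow_mem_range hp hk f r M.toCoxeterSystem hB hd hZ hn hyf
  exact Cfsg.Agent.H696.GmnInv.mem_of_pow hy hpd ⟨s, hs⟩

/-- types with `-1 ∈ W` and unimodular Cartan matrix -/
theorem el_adj {D : ChevalleyDatum} {l : ℕ} {M : CoxeterMatrix (Fin l)} (hp : IsType D l M)
    {B : Fin l → Fin l → ℤ} (hB : InvC D l 1 B) (hM : SymTwo M)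
    (hk1 : IsSimpleGroup ↥(D.group (AlgebraicClosure (ZMod r))) ∧ ¬ IsMulCommutative ↥(D.group (AlgebraicClosure (ZMod r))))
    (hF1 : IsSimpleGroup ↥(D.group F) ∧ ¬ IsMulCommutative ↥(D.group F))
    (hneg : ∃ w : M.Group, ∀ a, IsRoot M.toCoxeterSystem hp.isCartan a → rep M.toCoxeterSystem hp.isCartan w a = -a)
    (h2 : 2 ∣ Nat.card ↥(D.group F))
    (hns : ∀ (F₁ : Type) [Field F₁] [Fintype F₁], ¬ Group.IsSolvable ↥(D.group F₁)) : ElRow r ↥(D.group F) :=
  el_of_real hp h2 (fun f {_} hpp hp2 {_} hn {_} hx => cases' hp hB one_ne_zero hM hk1 hF1 f hpp hp2 hn hx) hns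
    (fun f {_} _ _ {_} hn {_} hy hyf => ind_adj hp hB one_ne_zero (center_eq_bot_of_simple hk1) f
      (Nat.coprime_one_right _) hn hy hyf)
    (fun {_} hpp _ hpr {_} hz => real_adj hp hB (center_eq_bot_of_simple hk1) hneg hpp hpr hz)

/-- **`G₂(q)`, `q ≥ 3`.** -/
theorem el_g2 (h3 : 3 ≤ Fintype.card F) : ElRow r ↥(chevG2.group F) :=
  el_adj g2T inv_G2 symTwo_G2 (S1055.result (exists_ne_algClosed _)) (S1055.result (exists_ne h3))
    (Cfsg.Agent.H696.GmnNeg.negG2 g2T _) even_g2 fun _ _ _ => ns_g2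

/-- **`F₄(q)`.** -/
theorem el_f4 : ElRow r ↥(chevF4.group F) :=
  el_adj f4T inv_F4 symTwo_F4 (S1054.result chevF4 (by simp)) (S1054.result chevF4 (by simp))
    (Cfsg.Agent.H696.GmnNeg.negF4 f4T _) even_f4 fun _ _ _ => ns_chev (by simp)

/-- **`E₈(q)`.** -/
theorem el_e8 : ElRow r ↥(chevE8.group F) :=
  el_adj e8T inv_E8 symTwo_E8 (S1054.result chevE8 (by simp)) (S1054.result chevE8 (by simp))
    (Cfsg.Agent.H696.GmnNeg.negE8 e8T _) even_e8 fun _ _ _ => ns_chev (by simp)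

/-- **`E₇(q)`.** -/
theorem el_e7 : ElRow r ↥(chevE7.group F) := by
  refine el_of_real e7T even_e7 (fun f {_} hpp hp2 {_} hn {_} hx => cases' e7T inv_E7 two_ne_zero symTwo_E7
    (S1054.result chevE7 (by simp)) (S1054.result chevE7 (by simp)) f hpp hp2 hn hx) (fun _ _ _ => ns_chev (by simp))
    (fun f {_} hpp hp2 {_} hn {_} hy hyf => ind_adj e7T inv_E7 two_ne_zero (center_eq_bot_of_simple
      (S1054.result chevE7 (by simp))) f ((Nat.coprime_primes hpp Nat.prime_two).2 hp2) hn hy hyf)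
    (fun {p} hpp hp2 hpr {_} hz => Cfsg.Agent.H486.OnE7.real_e7 hpp hp2 (fun h0 => ?_) hz)
  exact hpr ((Nat.prime_dvd_prime_iff_eq Fact.out hpp).1 ((CharP.cast_eq_zero_iff F r p).1 h0)).symm

/-- **The rows `G₂(q)`, `F₄(q)`, `E₇(q)`, `E₈(q)`.** -/
theorem el_exc {G : Type*} [Group G] (h : (3 ≤ Fintype.card F ∧ Nonempty (G ≃* ↥(chevG2.group F))) ∨
    Nonempty (G ≃* ↥(chevF4.group F)) ∨ Nonempty (G ≃* ↥(chevE7.group F)) ∨ Nonempty (G ≃* ↥(chevE8.group F))) :
    ElRow r G := by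
  rcases h with ⟨h3, ⟨e⟩⟩ | ⟨⟨e⟩⟩ | ⟨⟨e⟩⟩ | ⟨⟨e⟩⟩
  · exact ElRow.congr e (el_g2 h3)
  · exact ElRow.congr e el_f4
  · exact ElRow.congr e el_e7
  · exact ElRow.congr e el_e8

end Rows

end Cfsg.Agent.H288.ElExc
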