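import Mathlib
import Cfsg.Agent.Dichotomy.Functor
import Cfsg.Agent.S0217
import Cfsg.Agent.S0058
import Cfsg.Agent.H288.SigRed

/-!
# Equivariant signalizer functors on the abelian 2-subgroups of rank at least 3

From an equivariant `θ` which is an `A`-signalizer functor for all abelian 2-subgroups `A` of rank at
least 3 to a local setup on `G`.
-/

set_option autoImplicit false

namespace Cfsg.Agent.H288.SigFunc

open Cfsg Subgroup
open Cfsg.Agent.Dichotomy.Elem
open Cfsg.Agent.Dichotomy.Functor (card_le_two exists_central_involution map_conj_inv)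
open Cfsg.Agent.SignalizersComponents.BalLocal (LocalSetup)

universe u

variable {G : Type u} [Group G]

/-- The hypotheses on `θ`. -/
structure Th (θ : G → Subgroup G) : Prop where
  conj : ∀ g a : G, θ (g * a * g⁻¹) = (θ a).map (MulAut.conj g).toMonoidHom
  solv : ∀ A : Subgroup G, Big A → ∀ a ∈ A, a ≠ 1 → Group.IsSolvable (θ a)
  fn : ∀ A : Subgroup G, Big A → IsSignalizerFunctor 2 A θ

/-- the join of the `θ a`, `a ∈ E`, `a ≠ 1` -/
def W (θ : G → Subgroup G) (E : Subgroup G) : Subgroup G :=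
  ⨆ a : {a : G // a ∈ E ∧ a ≠ 1}, θ (a : G)

variable {θ : G → Subgroup G}

theorem le_W (E : Subgroup G) {a : G} (ha : a ∈ E) (ha1 : a ≠ 1) : θ a ≤ W θ E :=
  le_iSup (fun a : {a : G // a ∈ E ∧ a ≠ 1} => θ (a : G)) ⟨a, ha, ha1⟩

theorem W_le {E H : Subgroup G} (h : ∀ a ∈ E, a ≠ 1 → θ a ≤ H) : W θ E ≤ H :=
  iSup_le fun a => h a a.2.1 a.2.2

theorem complete [Finite G] (hT : Th θ) {A : Subgroup G} (hA : Big A) :
    ¬ 2 ∣ Nat.card (W θ A) ∧ ∀ a ∈ A, a ≠ 1 → W θ A ⊓ centralizer {a} = θ a := by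
  obtain ⟨h1, h2, h3, h4⟩ := hT.fn A hA
  exact Cfsg.Agent.S0217.result (p := 2) A (elem_comm hA.1) hA.1.2 hA.2 θ h1 h2 h3
    (hT.solv A hA) h4

theorem W_conj_le (hT : Th θ) (E : Subgroup G) (g : G) :
    (W θ E).map (MulAut.conj g).toMonoidHom ≤ W θ (E.map (MulAut.conj g).toMonoidHom) := by
  rw [W, Subgroup.map_iSup]
  refine iSup_le ?_
  rintro ⟨a, ha, ha1⟩
  change (θ a).map (MulAut.conj g).toMonoidHom ≤ _
  rw [← hT.conj g a]
  refine le_W _ ⟨a, ha, rfl⟩ ?_
  intro h
  apply ha1
  have := congrArg (fun x => g⁻¹ * x * g) h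
  simpa [mul_assoc] using this

theorem W_conj (hT : Th θ) (E : Subgroup G) (g : G) :
    (W θ E).map (MulAut.conj g).toMonoidHom = W θ (E.map (MulAut.conj g).toMonoidHom) := by
  apply le_antisymm (W_conj_le hT E g)
  have h := Subgroup.map_mono (f := (MulAut.conj g).toMonoidHom)
    (W_conj_le hT (E.map (MulAut.conj g).toMonoidHom) g⁻¹)
  rw [map_conj_inv] at h
  have h2 := map_conj_inv (W θ (E.map (MulAut.conj g).toMonoidHom)) g⁻¹
  rw [inv_inv] at h2
  rwa [h2] at h

theorem le_normalizer_W (hT : Th θ) (A : Subgroup G) :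
    A ≤ normalizer (W θ A : Set G) := by
  intro b hb
  refine Cfsg.Agent.Dichotomy.Functor.mem_normalizer_of_map_eq ?_
  rw [W_conj hT]
  congr 1
  ext x
  constructor
  · rintro ⟨y, hy, rfl⟩
    exact A.mul_mem (A.mul_mem hb hy) (A.inv_mem hb)
  · intro hx
    refine ⟨b⁻¹ * x * b, A.mul_mem (A.mul_mem (A.inv_mem hb) hx) hb, ?_⟩
    simp [mul_assoc]

theorem W_eq_of_le [Finite G] (hT : Th θ) {A E : Subgroup G} (hA : Big A) (hEA : E ≤ A)
    (hE4 : 4 ≤ Nat.card E) : W θ E = W θ A := by
  obtain ⟨h1, h2⟩ := complete hT hA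
  have hE : IsElementaryAbelian 2 E := elem_mono hA.1 hEA
  have := hE.1
  have hncyc : ¬ IsCyclic E := by
    intro hcyc
    obtain ⟨g, hg⟩ := IsCyclic.exists_generator (α := E)
    have h3 : orderOf g = Nat.card E := orderOf_eq_card_of_forall_mem_zpowers hg
    have h4 : g ^ 2 = 1 := by
      ext
      simpa using hE.2 g g.2
    have h5 : orderOf g ≤ 2 := orderOf_le_of_pow_eq_one two_pos h4
    omega
  have hcop : (Nat.card E).Coprime (Nat.card (W θ A)) := by
    obtain ⟨n, hn⟩ := (IsPGroup.iff_card (p := 2)).1 (isPGroup_of_elem hE)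
    rw [hn]
    exact Nat.Coprime.pow_left n ((Nat.Prime.coprime_iff_not_dvd Nat.prime_two).2 h1)
  have h7 := Cfsg.Agent.S0058.result E (W θ A) hncyc
    (hEA.trans (le_normalizer_W hT A)) hcop
  apply le_antisymm
  · refine W_le fun a ha ha1 => ?_
    exact le_W A (hEA ha) ha1
  · rw [← h7]
    refine iSup₂_le ?_
    rintro a ⟨ha, ha1⟩
    rw [h2 a (hEA ha) ha1]
    exact le_W E ha ha1

theorem W_four [Finite G] (hT : Th θ) {A : Subgroup G} (hA : Big A) {a b : G} (ha : a ∈ A)
    (hb : b ∈ A) (ha1 : a ≠ 1) (hb1 : b ≠ 1) (hne : a ≠ b) : W θ (four a b) = W θ A :=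
  W_eq_of_le hT hA (four_le ha hb)
    (card_four (elem_sq hA.1 ha) (elem_sq hA.1 hb) (elem_comm hA.1 a ha b hb) ha1 hb1 hne).ge

/-- `T` a `2`-group, `⟨s, e⟩` a normal four-group of `T` with `s` central: every big subgroup `A`
of `T` has `W_A = W_B` with `B` a big subgroup of `T` containing `s` and `e`. -/
theorem rank_lemma [Finite G] (hF : Th θ) {T A : Subgroup G} (hAT : A ≤ T) (hA : Big A) {s e : G}
    (hsT : s ∈ T) (hs2 : s * s = 1) (hs1 : s ≠ 1) (hsc : ∀ t ∈ T, t * s = s * t)
    (heT : e ∈ T) (he2 : e * e = 1) (he1 : e ≠ 1) (hes : e ≠ s)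
    (hen : ∀ t ∈ T, t * e * t⁻¹ = e ∨ t * e * t⁻¹ = s * e) :
    ∃ B : Subgroup G, Big B ∧ B ≤ T ∧ s ∈ B ∧ e ∈ B ∧ W θ B = W θ A := by
  have hse : s * e = e * s := (hsc e heT).symm
  set A₀ : Subgroup G := A ⊓ Subgroup.centralizer ({e} : Set G) with hA₀
  have hA₀A : A₀ ≤ A := inf_le_left
  have hA₀e : IsElementaryAbelian 2 A₀ := elem_mono hA.1 hA₀A
  have hcard : 4 ≤ Nat.card A₀ := by
    by_cases hle : A ≤ A₀
    · have := Subgroup.card_le_of_le hle
      have := hA.2
      omega
    · obtain ⟨a₀, ha₀, ha₀'⟩ := SetLike.not_le_iff_exists.1 hle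
      have h1 : a₀ * e * a₀⁻¹ = s * e := by
        refine (hen a₀ (hAT ha₀)).resolve_left ?_
        intro h
        apply ha₀'
        refine ⟨ha₀, Subgroup.mem_centralizer_singleton_iff.2 ?_⟩
        rwa [mul_inv_eq_iff_eq_mul] at h
      have h2 := card_le_two (A := A) (B := A₀) a₀ (by
        intro a ha
        rcases hen a (hAT ha) with h | h
        · left
          refine ⟨ha, Subgroup.mem_centralizer_singleton_iff.2 ?_⟩
          rwa [mul_inv_eq_iff_eq_mul] at h
        · right
          refine ⟨mul_mem ha₀ ha, Subgroup.mem_centralizer_singleton_iff.2 ?_⟩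
          rw [← mul_inv_eq_iff_eq_mul]
          have h3 : a₀ * a * e * (a₀ * a)⁻¹ = a₀ * (a * e * a⁻¹) * a₀⁻¹ := by group
          have h4 : a₀ * (s * e) * a₀⁻¹ = s * (a₀ * e * a₀⁻¹) := by
            have := hsc a₀ (hAT ha₀)
            rw [← mul_assoc, this]; group
          rw [h3, h, h4, h1, ← mul_assoc, hs2, one_mul])
      have := hA.2
      omega
  -- an element of `A₀` outside `⟨s, e⟩`
  have hex : ∃ a ∈ A₀, a ∉ four s e := by
    by_contra hcon
    push Not at hcon
    have h1 : A₀ ≤ four s e := hcon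
    have h2 : A₀ = four s e := Subgroup.eq_of_le_of_card_ge h1
      (by rw [card_four hs2 he2 hse hs1 he1 hes.symm]; exact hcard)
    have h3 : e ∈ A := hA₀A (h2 ▸ right_mem_four s e)
    have h4 : A ≤ A₀ := fun a ha => ⟨ha, Subgroup.mem_centralizer_singleton_iff.2
      (elem_comm hA.1 a ha e h3)⟩
    have h5 := Subgroup.card_le_of_le h4
    have h6 := hA.2
    rw [h2, card_four hs2 he2 hse hs1 he1 hes.symm] at h5
    omega
  obtain ⟨a, haA₀, ha4⟩ := hex
  rw [mem_four_iff hs2 he2 hse] at ha4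
  push Not at ha4
  -- the join
  have hD : IsElementaryAbelian 2 (four s e ⊔ A₀) := by
    refine elem_sup (elem_four hs2 he2 hse) hA₀e ?_
    intro x hx y hy
    have hle : four s e ≤ Subgroup.centralizer ({y} : Set G) := by
      refine four_le (Subgroup.mem_centralizer_singleton_iff.2 (hsc y (hAT (hA₀A hy))).symm)
        (Subgroup.mem_centralizer_singleton_iff.2
          (Subgroup.mem_centralizer_singleton_iff.1 hy.2).symm)
    exact Subgroup.mem_centralizer_singleton_iff.1 (hle hx)
  have hDB : Big (four s e ⊔ A₀) := by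
    refine ⟨hD, card_ge hD ?_⟩
    rw [show (2 : ℕ) ^ 2 = 4 from rfl, ← card_four hs2 he2 hse hs1 he1 hes.symm]
    refine lt_of_le_of_ne (Subgroup.card_le_of_le le_sup_left) ?_
    intro h
    have h1 : four s e = four s e ⊔ A₀ := Subgroup.eq_of_le_of_card_ge le_sup_left h.ge
    have h2 : a ∈ four s e := by
      rw [h1]
      exact Subgroup.mem_sup_right haA₀
    rw [mem_four_iff hs2 he2 hse] at h2
    rcases h2 with h | h | h | h
    · exact ha4.1 h
    · exact ha4.2.1 h
    · exact ha4.2.2.1 h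
    · exact ha4.2.2.2 h
  refine ⟨four s e ⊔ A₀, hDB, sup_le (four_le hsT heT) (hA₀A.trans hAT),
    Subgroup.mem_sup_left (left_mem_four s e), Subgroup.mem_sup_left (right_mem_four s e), ?_⟩
  rw [← W_eq_of_le hF hDB le_sup_right hcard, W_eq_of_le hF hA hA₀A hcard]

theorem W_eq_of_pgroup [Finite G] (hF : Th θ) {T A B : Subgroup G} (hT : IsPGroup 2 T)
    (hAT : A ≤ T) (hA : Big A) (hBT : B ≤ T) (hB : Big B) : W θ A = W θ B := by
  have hne : T ≠ ⊥ := by
    rintro rfl
    rw [le_bot_iff] at hAT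
    have := hA.2
    rw [hAT, Subgroup.card_bot] at this
    norm_num at this
  obtain ⟨s, hsT, hs2, hs1, hsc⟩ := exists_central_involution hT hne
  obtain ⟨e, heT, he2, he1, hes, hen⟩ := exists_e hT hAT hA hsT hs2 hs1 hsc
  obtain ⟨D, hD, _, hsD, heD, hWD⟩ :=
    rank_lemma hF hAT hA hsT hs2 hs1 hsc heT he2 he1 hes hen
  obtain ⟨D', hD', _, hsD', heD', hWD'⟩ :=
    rank_lemma hF hBT hB hsT hs2 hs1 hsc heT he2 he1 hes hen
  rw [← hWD, ← hWD', ← W_four hF hD hsD heD hs1 he1 hes.symm,
    W_four hF hD' hsD' heD' hs1 he1 hes.symm]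

/-- An involution acting on a normal elementary abelian subgroup of order at least 8 lies in an
elementary abelian subgroup of order at least 8. -/
theorem exists_big_mem [Finite G] {T U : Subgroup G} (hUT : U ≤ T)
    (hU : Big U) (hn : T ≤ normalizer (U : Set G)) {x : G} (hx : x ∈ T) (hx2 : x * x = 1) :
    ∃ B : Subgroup G, Big B ∧ B ≤ T ∧ x ∈ B := by
  by_cases hxU : x ∈ U
  · exact ⟨U, hU, hUT, hxU⟩
  set C : Subgroup G := U ⊓ centralizer ({x} : Set G) with hC
  have hCe : IsElementaryAbelian 2 C := elem_mono hU.1 inf_le_left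
  -- the commutator map
  have hmap : ∀ u ∈ U, u * (x * u * x⁻¹) ∈ C := by
    intro u hu
    have h1 : x * u * x⁻¹ ∈ U := (mem_normalizer_iff.mp (hn hx) u).mp hu
    refine ⟨U.mul_mem hu h1, ?_⟩
    show _ ∈ centralizer ({x} : Set G)
    rw [mem_centralizer_singleton_iff]
    have hxi : x⁻¹ = x := inv_eq_of_mul_eq_one_left hx2
    have h2 := elem_comm hU.1 u hu _ h1
    rw [hxi] at h2 ⊢
    calc u * (x * u * x) * x = u * x * u * (x * x) := by group
      _ = u * x * u := by rw [hx2, mul_one]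
      _ = (x * x) * (u * x * u) := by rw [hx2, one_mul]
      _ = x * (x * u * x * u) := by group
      _ = x * (u * (x * u * x)) := by rw [h2]
  have hcard : Nat.card U ≤ Nat.card C * Nat.card C := by
    classical
    -- `f u = u * x u x⁻¹` is constant exactly on cosets of `C`
    let f : U → C := fun u => ⟨u * (x * u * x⁻¹), hmap u u.2⟩
    -- choose representatives
    let r : C → U := fun c => if h : ∃ u : U, f u = c then h.choose else 1
    have hr : ∀ u : U, f (r (f u)) = f u := by
      intro u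
      have h : ∃ v : U, f v = f u := ⟨u, rfl⟩
      simp only [r, dif_pos h]
      exact h.choose_spec
    have hd : ∀ u : U, ((r (f u) : U) : G)⁻¹ * (u : G) ∈ C := by
      intro u
      set v := r (f u) with hv
      have h1 : (v : G) * (x * v * x⁻¹) = u * (x * u * x⁻¹) := congrArg Subtype.val (hr u)
      refine ⟨U.mul_mem (U.inv_mem v.2) u.2, ?_⟩
      show _ ∈ centralizer ({x} : Set G)
      rw [mem_centralizer_singleton_iff]
      have hxv : x * v * x⁻¹ ∈ U := (mem_normalizer_iff.mp (hn hx) v).mp v.2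
      have hxu : x * u * x⁻¹ ∈ U := (mem_normalizer_iff.mp (hn hx) u).mp u.2
      have h2 : (v : G)⁻¹ * u = (x * v * x⁻¹) * (x * u * x⁻¹)⁻¹ := by
        have e1 : x * (v : G) * x⁻¹ = (v : G)⁻¹ * (u * (x * u * x⁻¹)) := by
          rw [← h1]; group
        rw [e1]; group
      have h3 : (v : G)⁻¹ * u = x * (v * (u : G)⁻¹) * x⁻¹ := by rw [h2]; group
      have hui : (u : G)⁻¹ = u := inv_eq_of_mul_eq_one_left (elem_sq hU.1 u.2)
      have hvi : (v : G)⁻¹ = v := inv_eq_of_mul_eq_one_left (elem_sq hU.1 v.2)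
      rw [hui, hvi] at h3
      rw [hvi]
      calc (v : G) * u * x = x * (v * u) * x⁻¹ * x := by rw [← h3]
        _ = x * (v * u) := by group
    let F : U → C × C := fun u => (f u, ⟨_, hd u⟩)
    have hF : Function.Injective F := by
      intro u v huv
      have h1 : f u = f v := congrArg Prod.fst huv
      have h2 : ((r (f u) : U) : G)⁻¹ * (u : G) = ((r (f v) : U) : G)⁻¹ * (v : G) :=
        congrArg (fun z : C × C => (z.2 : G)) huv
      rw [h1] at h2
      exact Subtype.ext (mul_left_cancel h2)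
    have := Nat.card_le_card_of_injective F hF
    rwa [Nat.card_prod] at this
  have hC4 : 4 ≤ Nat.card C := by
    have h8 := hU.2
    have h3 : 2 ^ 1 < Nat.card C := by
      by_contra hle
      push Not at hle
      have : Nat.card C * Nat.card C ≤ 2 ^ 1 * 2 ^ 1 := Nat.mul_le_mul hle hle
      omega
    have := card_ge hCe h3
    simpa using this
  have hz : IsElementaryAbelian 2 (zpowers x) := by
    refine ⟨inferInstance, ?_⟩
    rintro _ ⟨k, rfl⟩
    show (x ^ k) ^ 2 = 1
    rw [← zpow_natCast, ← zpow_mul, mul_comm, zpow_mul, zpow_natCast, pow_two, hx2, one_zpow]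
  have hE : IsElementaryAbelian 2 (zpowers x ⊔ C) := by
    refine elem_sup hz hCe ?_
    rintro _ ⟨k, rfl⟩ c hc
    have h1 : Commute x c := (mem_centralizer_singleton_iff.1 hc.2).symm
    exact h1.zpow_left k
  refine ⟨zpowers x ⊔ C, ⟨hE, ?_⟩, sup_le ?_ (inf_le_left.trans hUT),
    mem_sup_left (mem_zpowers x)⟩
  · refine card_ge hE ?_
    refine lt_of_le_of_lt (b := Nat.card C) (by simpa using hC4) ?_
    refine lt_of_le_of_ne (Subgroup.card_le_of_le le_sup_right) ?_
    intro h
    have h1 : C = zpowers x ⊔ C := Subgroup.eq_of_le_of_card_ge le_sup_right h.ge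
    have h2 : x ∈ C := by
      rw [h1]
      exact mem_sup_left (mem_zpowers x)
    exact hxU h2.1
  · rw [zpowers_le]
    exact hx

/-- The subgroup generated by the `θ x`, `x` an involution of `X`. -/
def span (θ : G → Subgroup G) (X : Subgroup G) : Subgroup G :=
  ⨆ x : {x : G // x ∈ X ∧ orderOf x = 2}, θ (x : G)

theorem le_span {X : Subgroup G} {x : G} (hx : x ∈ X) (hx2 : orderOf x = 2) : θ x ≤ span θ X :=
  le_iSup (fun x : {x : G // x ∈ X ∧ orderOf x = 2} => θ (x : G)) ⟨x, hx, hx2⟩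

theorem span_le {X M : Subgroup G} (h : ∀ x ∈ X, orderOf x = 2 → θ x ≤ M) : span θ X ≤ M :=
  iSup_le fun x => h x x.2.1 x.2.2

theorem orderOf_conj' (g t : G) : orderOf (g * t * g⁻¹) = orderOf t := by
  have := orderOf_injective (MulAut.conj g).toMonoidHom (MulAut.conj g).injective t
  simpa [MulAut.conj_apply] using this

theorem normalizer_le_normalizer_span (hT : Th θ) (X : Subgroup G) :
    normalizer (X : Set G) ≤ normalizer (span θ X : Set G) := by
  have key : ∀ g ∈ normalizer (X : Set G), ∀ w ∈ span θ X, g * w * g⁻¹ ∈ span θ X := by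
    intro g hg w hw
    have h1 : span θ X ≤ (span θ X).comap (MulAut.conj g).toMonoidHom := by
      refine span_le fun x hx hx2 => ?_
      rw [← map_le_iff_le_comap, ← hT.conj]
      exact le_span ((mem_normalizer_iff.mp hg x).mp hx) (by rw [orderOf_conj']; exact hx2)
    exact h1 hw
  intro g hg
  rw [mem_normalizer_iff]
  intro w
  constructor
  · exact key g hg w
  · intro hw
    have := key g⁻¹ (inv_mem hg) _ hw
    have e : g⁻¹ * (g * w * g⁻¹) * g⁻¹⁻¹ = w := by group
    rwa [e] at this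

/-- The local setup. -/
theorem localSetup [Finite G] (hT : Th θ) (S : Sylow 2 G) {U : Subgroup G}
    (hUS : U ≤ (S : Subgroup G)) (hU : Big U) (hn : (S : Subgroup G) ≤ normalizer (U : Set G)) :
    LocalSetup S (W θ U) := by
  have hS : IsPGroup 2 (S : Subgroup G) := S.isPGroup'
  have hodd : Odd (Nat.card (W θ U)) := by
    rw [← Nat.not_even_iff_odd, even_iff_two_dvd]
    exact (complete hT hU).1
  have hfix : ∀ x ∈ (S : Subgroup G), orderOf x = 2 → W θ U ⊓ centralizer {x} = θ x := by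
    intro x hx hx2
    obtain ⟨B, hB, hBS, hxB⟩ := exists_big_mem hUS hU hn hx (sq_of_orderOf hx2)
    rw [W_eq_of_pgroup hT hS hUS hU hBS hB]
    exact (complete hT hB).2 x hxB (ne_one_of_orderOf hx2)
  have hSN : (S : Subgroup G) ≤ normalizer (W θ U : Set G) := by
    intro s hs
    refine Cfsg.Agent.Dichotomy.Functor.mem_normalizer_of_map_eq ?_
    rw [W_conj hT]
    congr 1
    exact Cfsg.Agent.Dichotomy.Functor.map_eq_of_mem_normalizer (hn hs)
  have hrank : ¬ PRankLE 2 1 (S : Subgroup G) := by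
    intro h
    have h1 := h (U.subgroupOf (S : Subgroup G)) (by
        have := hU.1.1
        infer_instance) (by
        intro a ha
        ext
        simpa using hU.1.2 a ha)
    have hcard : Nat.card (U.subgroupOf (S : Subgroup G)) = Nat.card U :=
      Nat.card_congr (Subgroup.subgroupOfEquivOfLe hUS).toEquiv
    rw [hcard] at h1
    have := hU.2
    omega
  refine ⟨hodd, ?_, ?_, ?_, hrank⟩
  · intro x hx hx2 c hc
    rw [hfix x hx hx2]
    refine Cfsg.Agent.Dichotomy.Functor.mem_normalizer_of_map_eq ?_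
    rw [← hT.conj]
    congr 1
    rw [mem_centralizer_singleton_iff] at hc
    rw [hc, mul_inv_cancel_right]
  · intro x hx hx2 g hg w hw hwx
    have h1 : w ∈ θ x := by
      rw [← hfix x hx hx2]
      exact ⟨hw, mem_centralizer_singleton_iff.mpr hwx⟩
    have h2 : g * w * g⁻¹ ∈ θ (g * x * g⁻¹) := by
      rw [hT.conj]
      exact ⟨w, h1, rfl⟩
    rw [← hfix _ hg (by rw [orderOf_conj']; exact hx2)] at h2
    exact h2.1
  · intro X hX hXr
    have hle : W θ U ≤ span θ X := by
      obtain ⟨x, hx, y, hy, hx1, hy1, hne, hx2, hy2, hxy⟩ :=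
        Cfsg.Agent.TwoGenCore.not_pRankLE_one_iff.mp hXr
      have hxy1 : x * y ≠ 1 := by
        intro e
        apply hne
        have : x * y = x * x := by rw [e, hx2]
        exact (mul_left_cancel this).symm
      have hxy2 : (x * y) * (x * y) = 1 := by
        calc x * y * (x * y) = x * y * (y * x) := by rw [hxy]
          _ = x * (y * y) * x := by group
          _ = 1 := by rw [hy2, mul_one, hx2]
      have key : ∀ z ∈ X, z ≠ 1 → z * z = 1 → W θ U ⊓ centralizer {z} ≤ span θ X := by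
        intro z hz hz1 hz2
        rw [hfix z (hX hz) (orderOf_two hz2 hz1)]
        exact le_span hz (orderOf_two hz2 hz1)
      exact Lib.KleinGen.le_of_klein (W θ U) (span θ X) hodd x y hx2 hy2 hxy
        (fun w hw => (mem_normalizer_iff.mp (hSN (hX hx)) w).mp hw)
        (fun w hw => (mem_normalizer_iff.mp (hSN (hX hy)) w).mp hw)
        (key x hx hx1 hx2) (key y hy hy1 hy2) (key _ (X.mul_mem hx hy) hxy1 hxy2)
    have hge : span θ X ≤ W θ U := span_le fun x hx hx2 => by
      rw [← hfix x (hX hx) hx2]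
      exact inf_le_left
    rw [le_antisymm hle hge]
    exact normalizer_le_normalizer_span hT X

end Cfsg.Agent.H288.SigFunc
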